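import Mathlib
import Cfsg.Prelude.Def_Local
import Cfsg.Agent.Lib.Helper7.PCore
import Cfsg.Agent.Lib.Helper1.UpperP

set_option autoImplicit false

namespace Cfsg.Agent.Lib.Helper3

open Cfsg

universe u v

theorem plen_map_pPrimeCore_le {A : Type u} {B : Type v} [Group A] [Group B] [Finite A] (p : ℕ)
    (f : A →* B) (hf : Function.Surjective f) :
    (pPrimeCore p A).map f ≤ pPrimeCore p B := by
  have hn : ((pPrimeCore p A).map f).Normal :=
    (Cfsg.Agent.Lib.Helper7.pPrimeCore_normal p A).map f hf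
  apply Cfsg.Agent.Lib.Helper7.le_pPrimeCore hn
  exact Nat.Coprime.coprime_dvd_left (Subgroup.card_map_dvd _ f)
    (Cfsg.Agent.Lib.Helper7.pPrimeCore_coprime p A)

theorem plen_map_pCore_le {A : Type u} {B : Type v} [Group A] [Group B] [Finite A] (p : ℕ)
    [Fact p.Prime] (f : A →* B) (hf : Function.Surjective f) :
    (pCore p A).map f ≤ pCore p B :=
  Cfsg.Agent.Lib.Helper7.le_pCore ((Cfsg.Agent.Lib.Helper7.pCore_normal p A).map f hf)
    ((Cfsg.Agent.Lib.Helper7.pCore_isPGroup p A).map f)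

/-- One step of the upper `p`-series is monotone along surjections. -/
theorem plen_step {G : Type u} {H : Type v} [Group G] [Group H] [Finite G] (p : ℕ)
    [Fact p.Prime] (f : G →* H) (hf : Function.Surjective f) (m n : ℕ)
    (hpar : Even m ↔ Even n)
    (h : (upperPSeries p G m).1.map f ≤ (upperPSeries p H n).1) :
    (upperPSeries p G (m + 1)).1.map f ≤ (upperPSeries p H (n + 1)).1 := by
  have hle : (upperPSeries p G m).1 ≤ ((upperPSeries p H n).1).comap f :=
    Subgroup.map_le_iff_le_comap.mp h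
  obtain ⟨fbar, hfbar⟩ : ∃ fbar : G ⧸ (upperPSeries p G m).1 →* H ⧸ (upperPSeries p H n).1,
      fbar = QuotientGroup.map _ _ f hle := ⟨_, rfl⟩
  have hfb : ∀ x : G, fbar (QuotientGroup.mk x) = QuotientGroup.mk (f x) := by
    intro x; rw [hfbar]; rfl
  have hsurj : Function.Surjective fbar := by
    intro y
    obtain ⟨h', rfl⟩ := QuotientGroup.mk_surjective y
    obtain ⟨g, rfl⟩ := hf h'
    exact ⟨QuotientGroup.mk g, hfb g⟩
  by_cases hm : Even m
  · have hn : Even n := hpar.mp hm
    rw [Cfsg.Agent.Lib.Helper1.upperPSeries_succ_even p G m hm,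
      Cfsg.Agent.Lib.Helper1.upperPSeries_succ_even p H n hn]
    rintro _ ⟨x, hx, rfl⟩
    have hx' : (QuotientGroup.mk' (upperPSeries p G m).1) x ∈
        pPrimeCore p (G ⧸ (upperPSeries p G m).1) := hx
    have h1 := plen_map_pPrimeCore_le p fbar hsurj ⟨_, hx', rfl⟩
    have h2 : fbar ((QuotientGroup.mk' (upperPSeries p G m).1) x) =
        (QuotientGroup.mk' (upperPSeries p H n).1) (f x) := hfb x
    rw [h2] at h1
    exact h1
  · have hn : ¬ Even n := fun h' => hm (hpar.mpr h')
    rw [Cfsg.Agent.Lib.Helper1.upperPSeries_succ_odd p G m hm,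
      Cfsg.Agent.Lib.Helper1.upperPSeries_succ_odd p H n hn]
    rintro _ ⟨x, hx, rfl⟩
    have hx' : (QuotientGroup.mk' (upperPSeries p G m).1) x ∈
        pCore p (G ⧸ (upperPSeries p G m).1) := hx
    have h1 := plen_map_pCore_le p fbar hsurj ⟨_, hx', rfl⟩
    have h2 : fbar ((QuotientGroup.mk' (upperPSeries p G m).1) x) =
        (QuotientGroup.mk' (upperPSeries p H n).1) (f x) := hfb x
    rw [h2] at h1
    exact h1

theorem plen_shift {G : Type u} {H : Type v} [Group G] [Group H] [Finite G] (p : ℕ)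
    [Fact p.Prime] (f : G →* H) (hf : Function.Surjective f) (m n : ℕ)
    (hpar : Even m ↔ Even n)
    (h : (upperPSeries p G m).1.map f ≤ (upperPSeries p H n).1) (k : ℕ) :
    (upperPSeries p G (m + k)).1.map f ≤ (upperPSeries p H (n + k)).1 := by
  induction k with
  | zero => exact h
  | succ k ih =>
    have hpar' : Even (m + k) ↔ Even (n + k) := by
      rw [Nat.even_add, Nat.even_add, hpar]
    exact plen_step p f hf (m + k) (n + k) hpar' ih

/-- `p`-length bounds pass to homomorphic images. -/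
theorem plen_quot {G : Type u} {H : Type v} [Group G] [Group H] [Finite G] (p : ℕ)
    [Fact p.Prime] (f : G →* H) (hf : Function.Surjective f) (k : ℕ)
    (h : PLengthLE p k G) : PLengthLE p k H := by
  unfold PLengthLE at *
  have h1 := plen_shift p f hf 0 0 Iff.rfl (by
    rw [Cfsg.Agent.Lib.Helper1.upperPSeries_zero, Subgroup.map_bot]; exact bot_le) (2 * k + 1)
  rw [Nat.zero_add] at h1
  rw [h, Subgroup.map_top_of_surjective f hf] at h1
  exact top_le_iff.mp h1

theorem plen_upper_one_eq_bot {G : Type u} [Group G] [Finite G] (p : ℕ)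
    (hO : pPrimeCore p G = ⊥) : (upperPSeries p G 1).1 = ⊥ := by
  rw [Cfsg.Agent.Lib.Helper1.upperPSeries_succ_even p G 0 ⟨0, rfl⟩, eq_bot_iff]
  intro x hx
  have hx' : (QuotientGroup.mk' (upperPSeries p G 0).1) x ∈
      pPrimeCore p (G ⧸ (upperPSeries p G 0).1) := hx
  obtain ⟨φ, hφ⟩ : ∃ φ : G ⧸ (upperPSeries p G 0).1 →* G,
      ∀ y : G, φ (QuotientGroup.mk y) = y := by
    refine ⟨QuotientGroup.lift _ (MonoidHom.id G) ?_, fun y => rfl⟩
    intro y hy
    rw [Cfsg.Agent.Lib.Helper1.upperPSeries_zero] at hy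
    rw [MonoidHom.mem_ker]
    exact Subgroup.mem_bot.mp hy
  have hsurj : Function.Surjective φ := fun g => ⟨QuotientGroup.mk g, hφ g⟩
  have h1 := plen_map_pPrimeCore_le p φ hsurj ⟨_, hx', rfl⟩
  have h2 : φ ((QuotientGroup.mk' (upperPSeries p G 0).1) x) = x := hφ x
  rw [h2, hO] at h1
  exact h1

theorem plen_upper_two_le {G : Type u} [Group G] [Finite G] (p : ℕ) [Fact p.Prime]
    (hO : pPrimeCore p G = ⊥) : (upperPSeries p G 2).1 ≤ pCore p G := by
  have hU1 := plen_upper_one_eq_bot p hO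
  rw [Cfsg.Agent.Lib.Helper1.upperPSeries_succ_odd p G 1 (by decide)]
  intro x hx
  have hx' : (QuotientGroup.mk' (upperPSeries p G 1).1) x ∈
      pCore p (G ⧸ (upperPSeries p G 1).1) := hx
  obtain ⟨φ, hφ⟩ : ∃ φ : G ⧸ (upperPSeries p G 1).1 →* G,
      ∀ y : G, φ (QuotientGroup.mk y) = y := by
    refine ⟨QuotientGroup.lift _ (MonoidHom.id G) ?_, fun y => rfl⟩
    intro y hy
    rw [hU1] at hy
    rw [MonoidHom.mem_ker]
    exact Subgroup.mem_bot.mp hy
  have hsurj : Function.Surjective φ := fun g => ⟨QuotientGroup.mk g, hφ g⟩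
  have h1 := plen_map_pCore_le p φ hsurj ⟨_, hx', rfl⟩
  have h2 : φ ((QuotientGroup.mk' (upperPSeries p G 1).1) x) = x := hφ x
  rw [h2] at h1
  exact h1

/-- If `O_{p'}(G) = 1` and `G` has `p`-length at most `k + 1`, then `G / O_p(G)` has `p`-length
at most `k`. -/
theorem plen_quot_pCore {G : Type u} [Group G] [Finite G] (p : ℕ) [Fact p.Prime]
    (hO : pPrimeCore p G = ⊥) [hn : (pCore p G).Normal] (k : ℕ) (h : PLengthLE p (k + 1) G) :
    PLengthLE p k (G ⧸ pCore p G) := by
  unfold PLengthLE at *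
  have hbase : (upperPSeries p G 2).1.map (QuotientGroup.mk' (pCore p G)) ≤
      (upperPSeries p (G ⧸ pCore p G) 0).1 := by
    rw [Cfsg.Agent.Lib.Helper1.upperPSeries_zero]
    refine le_trans (Subgroup.map_mono (plen_upper_two_le p hO)) ?_
    rw [QuotientGroup.map_mk'_self]
  have h1 := plen_shift p (QuotientGroup.mk' (pCore p G)) (QuotientGroup.mk'_surjective _) 2 0
    (by decide) hbase (2 * k + 1)
  have h2 : 2 + (2 * k + 1) = 2 * (k + 1) + 1 := by ring
  rw [h2, h, Subgroup.map_top_of_surjective _ (QuotientGroup.mk'_surjective _), Nat.zero_add] at h1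
  exact top_le_iff.mp h1

/-- `p`-length `0` with trivial `p'`-core forces the trivial group. -/
theorem plen_zero_subsingleton {G : Type u} [Group G] [Finite G] (p : ℕ)
    (hO : pPrimeCore p G = ⊥) (h : PLengthLE p 0 G) : Subsingleton G := by
  unfold PLengthLE at h
  have h1 := plen_upper_one_eq_bot p hO
  rw [show 2 * 0 + 1 = 1 from rfl] at h
  rw [h] at h1
  exact Subgroup.subsingleton_iff.mp ⟨fun a b => by
    have ha : a = ⊥ := le_bot_iff.mp (h1 ▸ le_top)
    have hb : b = ⊥ := le_bot_iff.mp (h1 ▸ le_top)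
    rw [ha, hb]⟩

/-- A nontrivial finite solvable group has a nontrivial `O_p` for some prime `p`. -/
theorem exists_pCore_ne_bot_of_solvable {G : Type u} [Group G] [Finite G] [Nontrivial G]
    (hG : Group.IsSolvable G) : ∃ p : ℕ, p.Prime ∧ pCore p G ≠ ⊥ := by
  classical
  have hex : ∃ n, derivedSeries G n = ⊥ := hG.solvable
  have h0 : Nat.find hex ≠ 0 := by
    intro h
    have h1 := Nat.find_spec hex
    rw [h, derivedSeries_zero] at h1
    exact top_ne_bot h1
  obtain ⟨n, hn⟩ := Nat.exists_eq_succ_of_ne_zero h0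
  have hAne : derivedSeries G n ≠ ⊥ := Nat.find_min hex (by rw [hn]; exact Nat.lt_succ_self n)
  have hAab : ⁅derivedSeries G n, derivedSeries G n⁆ = ⊥ := by
    have h1 := Nat.find_spec hex
    rw [hn, derivedSeries_succ] at h1
    exact h1
  obtain ⟨A, hA⟩ : ∃ A : Subgroup G, A = derivedSeries G n := ⟨_, rfl⟩
  rw [← hA] at hAne hAab
  have hAn : A.Normal := by rw [hA]; infer_instance
  have hcomm : ∀ a ∈ A, ∀ b ∈ A, Commute a b := by
    intro a ha b hb
    have h1 := Subgroup.commutator_mem_commutator ha hb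
    rw [hAab, Subgroup.mem_bot] at h1
    exact (commutatorElement_eq_one_iff_commute.mp h1)
  obtain ⟨a, haA, ha1⟩ : ∃ a ∈ A, a ≠ 1 := by
    by_contra hcon
    push Not at hcon
    exact hAne ((Subgroup.eq_bot_iff_forall A).mpr hcon)
  have hord : orderOf a ≠ 1 := fun h => ha1 (orderOf_eq_one_iff.mp h)
  obtain ⟨p, hp, hpdvd⟩ := Nat.exists_prime_and_dvd hord
  obtain ⟨m, hm⟩ := hpdvd
  have hb1 : a ^ m ≠ 1 := by
    intro h
    have h1 : orderOf a ∣ m := orderOf_dvd_of_pow_eq_one h
    have hpos : 0 < orderOf a := orderOf_pos a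
    have hmpos : 0 < m := by
      rcases Nat.eq_zero_or_pos m with h0 | h0
      · rw [h0, mul_zero] at hm; omega
      · exact h0
    have h2 : orderOf a ≤ m := Nat.le_of_dvd hmpos h1
    have h3 : m < p * m := by
      have := hp.one_lt
      nlinarith
    omega
  have hbp : (a ^ m) ^ p = 1 := by
    rw [← pow_mul, mul_comm, ← hm]; exact pow_orderOf_eq_one a
  let T : Subgroup G :=
    { carrier := {z | z ∈ A ∧ z ^ p = 1}
      mul_mem' := by
        rintro z z' ⟨h1, h3⟩ ⟨h1', h3'⟩
        refine ⟨A.mul_mem h1 h1', ?_⟩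
        rw [(hcomm z h1 z' h1').mul_pow, h3, h3', one_mul]
      one_mem' := ⟨A.one_mem, one_pow p⟩
      inv_mem' := by
        rintro z ⟨h1, h3⟩
        exact ⟨A.inv_mem h1, by rw [inv_pow, h3, inv_one]⟩ }
  have hTmem : ∀ z : G, z ∈ T ↔ z ∈ A ∧ z ^ p = 1 := fun z => Iff.rfl
  have hTn : T.Normal := by
    constructor
    intro z hz g
    obtain ⟨h1, h3⟩ := (hTmem z).mp hz
    refine (hTmem _).mpr ⟨hAn.conj_mem z h1 g, ?_⟩
    rw [conj_pow, h3]; group
  have hTp : IsPGroup p T := by
    intro t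
    refine ⟨1, ?_⟩
    have h3 := ((hTmem t).mp t.2).2
    apply Subtype.ext
    rw [pow_one]
    simpa using h3
  have hbT : a ^ m ∈ T := (hTmem _).mpr ⟨A.pow_mem haA m, hbp⟩
  refine ⟨p, hp, ?_⟩
  intro hbot
  have h1 : a ^ m ∈ pCore p G := (Cfsg.Agent.Lib.Helper7.le_pCore hTn hTp) hbT
  rw [hbot, Subgroup.mem_bot] at h1
  exact hb1 h1

/-! ### derived series helpers -/

theorem dl_add {G : Type u} [Group G] (H : Subgroup G) (a b : ℕ) (h : derivedSeries G a ≤ H) :
    derivedSeries G (a + b) ≤ (derivedSeries H b).map H.subtype := by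
  induction b with
  | zero =>
    rw [Nat.add_zero, derivedSeries_zero, ← MonoidHom.range_eq_map, Subgroup.range_subtype]
    exact h
  | succ b ih =>
    rw [← Nat.add_assoc, derivedSeries_succ, derivedSeries_succ, Subgroup.map_commutator]
    exact Subgroup.commutator_mono ih ih

theorem dl_of_quot {G : Type u} [Group G] (N : Subgroup G) [N.Normal] (a b : ℕ)
    (h1 : derivedSeries (G ⧸ N) a = ⊥) (h2 : derivedSeries N b = ⊥) :
    derivedSeries G (a + b) = ⊥ := by
  have h3 : derivedSeries G a ≤ N := by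
    have h4 := map_derivedSeries_le_derivedSeries (QuotientGroup.mk' N) a
    rw [h1, le_bot_iff, Subgroup.map_eq_bot_iff, QuotientGroup.ker_mk'] at h4
    exact h4
  have h5 := dl_add N a b h3
  rw [h2, Subgroup.map_bot] at h5
  exact le_bot_iff.mp h5

theorem dl_of_two_quot {G : Type u} [Group G] (N M : Subgroup G) [N.Normal] [M.Normal] (a : ℕ)
    (h1 : derivedSeries (G ⧸ N) a = ⊥) (h2 : derivedSeries (G ⧸ M) a = ⊥) (hNM : N ⊓ M = ⊥) :
    derivedSeries G a = ⊥ := by
  have h3 : derivedSeries G a ≤ N := by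
    have h4 := map_derivedSeries_le_derivedSeries (QuotientGroup.mk' N) a
    rw [h1, le_bot_iff, Subgroup.map_eq_bot_iff, QuotientGroup.ker_mk'] at h4
    exact h4
  have h3' : derivedSeries G a ≤ M := by
    have h4 := map_derivedSeries_le_derivedSeries (QuotientGroup.mk' M) a
    rw [h2, le_bot_iff, Subgroup.map_eq_bot_iff, QuotientGroup.ker_mk'] at h4
    exact h4
  exact le_bot_iff.mp (hNM ▸ le_inf h3 h3')

theorem dl_subgroup {G : Type u} [Group G] (H K : Subgroup G) (hHK : H ≤ K) (b : ℕ)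
    (h : derivedSeries K b = ⊥) : derivedSeries H b = ⊥ := by
  have h1 := map_derivedSeries_le_derivedSeries (Subgroup.inclusion hHK) b
  rw [h, le_bot_iff, Subgroup.map_eq_bot_iff] at h1
  rw [(Subgroup.inclusion hHK).ker_eq_bot_iff.mpr (Subgroup.inclusion_injective hHK)] at h1
  exact le_bot_iff.mp h1

theorem dl_image {G : Type u} {H : Type v} [Group G] [Group H] (f : G →* H) (P : Subgroup G)
    (P' : Subgroup H) (hP : P.map f = P') (d : ℕ) (h : derivedSeries P d = ⊥) :
    derivedSeries P' d = ⊥ := by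
  subst hP
  have hs := MonoidHom.subgroupMap_surjective f P
  have h1 := derivedSeries_le_map_derivedSeries hs d
  rw [h, Subgroup.map_bot] at h1
  exact le_bot_iff.mp h1

/-- The "all `p`-subgroups have derived length at most `d`" property passes to images. -/
theorem dl_pgroups_image {G : Type u} {H : Type v} [Group G] [Group H] [Finite G] (p : ℕ)
    [Fact p.Prime] (f : G →* H) (hf : Function.Surjective f) (d : ℕ)
    (h : ∀ P : Subgroup G, IsPGroup p P → derivedSeries P d = ⊥) (P' : Subgroup H)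
    (hP' : IsPGroup p P') : derivedSeries P' d = ⊥ := by
  have : Finite H := Finite.of_surjective f hf
  obtain ⟨S', hS'⟩ := hP'.exists_le_sylow
  obtain ⟨S, hS⟩ := Sylow.mapSurjective_surjective hf p S'
  have hSmap : (S : Subgroup G).map f = (S' : Subgroup H) := by
    rw [← hS]; rfl
  obtain ⟨P, hPdef⟩ : ∃ P : Subgroup G, P = (S : Subgroup G) ⊓ P'.comap f := ⟨_, rfl⟩
  have hPp : IsPGroup p P := S.isPGroup'.to_le (hPdef ▸ inf_le_left)
  have hmap : P.map f = P' := by
    apply le_antisymm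
    · rintro _ ⟨x, hx, rfl⟩
      rw [hPdef] at hx
      exact (Subgroup.mem_inf.mp hx).2
    · intro y hy
      have hy' : y ∈ (S : Subgroup G).map f := hSmap ▸ hS' hy
      obtain ⟨s, hs, rfl⟩ := hy'
      exact ⟨s, hPdef ▸ Subgroup.mem_inf.mpr ⟨hs, hy⟩, rfl⟩
  exact dl_image f P P' hmap d (h P hPp)

end Cfsg.Agent.Lib.Helper3
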