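import Mathlib
import Cfsg.Agent.Lib.Helper3.PLen

set_option autoImplicit false

namespace Cfsg.Agent.Lib.Helper3

open Cfsg

universe u v

theorem plen_mem_pCore_pow {Q : Type u} [Group Q] [Finite Q] (p : ℕ) [Fact p.Prime] {y : Q}
    (hy : y ∈ pCore p Q) : ∃ k : ℕ, y ^ (p ^ k) = 1 := by
  obtain ⟨k, hk⟩ := (Cfsg.Agent.Lib.Helper7.pCore_isPGroup p Q) ⟨y, hy⟩
  refine ⟨k, ?_⟩
  have h1 := congrArg Subtype.val hk
  simpa using h1

theorem plen_mem_pPrimeCore_pow {Q : Type u} [Group Q] [Finite Q] (p : ℕ) {y : Q}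
    (hy : y ∈ pPrimeCore p Q) : ∃ e : ℕ, e.Coprime p ∧ y ^ e = 1 := by
  refine ⟨Nat.card (pPrimeCore p Q), Cfsg.Agent.Lib.Helper7.pPrimeCore_coprime p Q, ?_⟩
  have h1 : (⟨y, hy⟩ : pPrimeCore p Q) ^ Nat.card (pPrimeCore p Q) = 1 := pow_card_eq_one'
  have h2 := congrArg Subtype.val h1
  simpa only [Subgroup.coe_pow, Subgroup.coe_one] using h2

theorem plen_le_pCore_of_pow {Q : Type u} [Group Q] (p : ℕ) (W : Subgroup Q)
    (hW : W.Normal) (h : ∀ w ∈ W, ∃ k : ℕ, w ^ (p ^ k) = 1) : W ≤ pCore p Q := by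
  apply Cfsg.Agent.Lib.Helper7.le_pCore hW
  rintro ⟨w, hw⟩
  obtain ⟨k, hk⟩ := h w hw
  exact ⟨k, Subtype.ext (by simpa using hk)⟩

theorem plen_le_pPrimeCore_of_pow {Q : Type u} [Group Q] [Finite Q] (p : ℕ) [hp : Fact p.Prime]
    (W : Subgroup Q) (hW : W.Normal) (h : ∀ w ∈ W, ∃ e : ℕ, e.Coprime p ∧ w ^ e = 1) :
    W ≤ pPrimeCore p Q := by
  apply Cfsg.Agent.Lib.Helper7.le_pPrimeCore hW
  by_contra hcon
  have hdvd : p ∣ Nat.card W := by
    by_contra hnd
    exact hcon (Nat.Coprime.symm ((Nat.Prime.coprime_iff_not_dvd hp.out).mpr hnd))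
  obtain ⟨w, hw⟩ := exists_prime_orderOf_dvd_card' p hdvd
  obtain ⟨e, he, hwe⟩ := h (w : Q) w.2
  have h1 : w ^ e = 1 := Subtype.ext (by simpa using hwe)
  have h2 : p ∣ e := hw ▸ orderOf_dvd_of_pow_eq_one h1
  have h3 : p ∣ Nat.gcd e p := Nat.dvd_gcd h2 dvd_rfl
  rw [he] at h3
  exact hp.out.one_lt.ne' (Nat.dvd_one.mp h3)

/-- Forward step for an arbitrary homomorphism, assuming the image of the next term is normal. -/
theorem plen_step_fwd {A : Type u} {B : Type v} [Group A] [Group B] [Finite A] [Finite B]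
    (p : ℕ) [Fact p.Prime] (f : A →* B) (m n : ℕ) (hpar : Even m ↔ Even n)
    (hnorm : ((upperPSeries p A (m + 1)).1.map f).Normal)
    (h : (upperPSeries p A m).1.map f ≤ (upperPSeries p B n).1) :
    (upperPSeries p A (m + 1)).1.map f ≤ (upperPSeries p B (n + 1)).1 := by
  obtain ⟨W, hW⟩ : ∃ W : Subgroup (B ⧸ (upperPSeries p B n).1),
      W = ((upperPSeries p A (m + 1)).1.map f).map (QuotientGroup.mk' _) := ⟨_, rfl⟩
  have hWn : W.Normal := by
    rw [hW]; exact hnorm.map _ (QuotientGroup.mk'_surjective _)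
  by_cases hm : Even m
  · have hn : Even n := hpar.mp hm
    have hWle : W ≤ pPrimeCore p (B ⧸ (upperPSeries p B n).1) := by
      apply plen_le_pPrimeCore_of_pow p W hWn
      intro w hw
      rw [hW] at hw
      obtain ⟨_, ⟨x, hx, rfl⟩, rfl⟩ := hw
      rw [Cfsg.Agent.Lib.Helper1.upperPSeries_succ_even p A m hm] at hx
      have hx' : (QuotientGroup.mk' (upperPSeries p A m).1) x ∈
          pPrimeCore p (A ⧸ (upperPSeries p A m).1) := hx
      obtain ⟨e, he, hxe⟩ := plen_mem_pPrimeCore_pow p hx'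
      refine ⟨e, he, ?_⟩
      have h1 : x ^ e ∈ (upperPSeries p A m).1 := by
        rw [← map_pow] at hxe
        exact (QuotientGroup.eq_one_iff _).mp hxe
      have h2 : f (x ^ e) ∈ (upperPSeries p B n).1 := h ⟨_, h1, rfl⟩
      rw [← map_pow, ← map_pow]
      exact (QuotientGroup.eq_one_iff _).mpr h2
    rw [Cfsg.Agent.Lib.Helper1.upperPSeries_succ_even p B n hn]
    rintro _ ⟨x, hx, rfl⟩
    exact hWle (hW ▸ ⟨_, ⟨x, hx, rfl⟩, rfl⟩)
  · have hn : ¬ Even n := fun h' => hm (hpar.mpr h')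
    have hWle : W ≤ pCore p (B ⧸ (upperPSeries p B n).1) := by
      apply plen_le_pCore_of_pow p W hWn
      intro w hw
      rw [hW] at hw
      obtain ⟨_, ⟨x, hx, rfl⟩, rfl⟩ := hw
      rw [Cfsg.Agent.Lib.Helper1.upperPSeries_succ_odd p A m hm] at hx
      have hx' : (QuotientGroup.mk' (upperPSeries p A m).1) x ∈
          pCore p (A ⧸ (upperPSeries p A m).1) := hx
      obtain ⟨k, hxe⟩ := plen_mem_pCore_pow p hx'
      refine ⟨k, ?_⟩
      have h1 : x ^ (p ^ k) ∈ (upperPSeries p A m).1 := by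
        rw [← map_pow] at hxe
        exact (QuotientGroup.eq_one_iff _).mp hxe
      have h2 : f (x ^ (p ^ k)) ∈ (upperPSeries p B n).1 := h ⟨_, h1, rfl⟩
      rw [← map_pow, ← map_pow]
      exact (QuotientGroup.eq_one_iff _).mpr h2
    rw [Cfsg.Agent.Lib.Helper1.upperPSeries_succ_odd p B n hn]
    rintro _ ⟨x, hx, rfl⟩
    exact hWle (hW ▸ ⟨_, ⟨x, hx, rfl⟩, rfl⟩)

/-- Reverse step for an arbitrary homomorphism. -/
theorem plen_step_rev {A : Type u} {B : Type v} [Group A] [Group B] [Finite A] [Finite B]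
    (p : ℕ) [Fact p.Prime] (f : A →* B) (m n : ℕ) (hpar : Even m ↔ Even n)
    (h : (upperPSeries p B n).1.comap f ≤ (upperPSeries p A m).1) :
    (upperPSeries p B (n + 1)).1.comap f ≤ (upperPSeries p A (m + 1)).1 := by
  obtain ⟨W, hW⟩ : ∃ W : Subgroup (A ⧸ (upperPSeries p A m).1),
      W = ((upperPSeries p B (n + 1)).1.comap f).map (QuotientGroup.mk' _) := ⟨_, rfl⟩
  have hWn : W.Normal := by
    rw [hW]
    exact (Subgroup.Normal.comap (upperPSeries p B (n + 1)).2 f).map _
      (QuotientGroup.mk'_surjective _)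
  by_cases hm : Even m
  · have hn : Even n := hpar.mp hm
    have hWle : W ≤ pPrimeCore p (A ⧸ (upperPSeries p A m).1) := by
      apply plen_le_pPrimeCore_of_pow p W hWn
      intro w hw
      rw [hW] at hw
      obtain ⟨x, hx, rfl⟩ := hw
      have hx1 : f x ∈ (upperPSeries p B (n + 1)).1 := hx
      rw [Cfsg.Agent.Lib.Helper1.upperPSeries_succ_even p B n hn] at hx1
      have hx' : (QuotientGroup.mk' (upperPSeries p B n).1) (f x) ∈
          pPrimeCore p (B ⧸ (upperPSeries p B n).1) := hx1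
      obtain ⟨e, he, hxe⟩ := plen_mem_pPrimeCore_pow p hx'
      refine ⟨e, he, ?_⟩
      have h1 : f (x ^ e) ∈ (upperPSeries p B n).1 := by
        rw [← map_pow, ← map_pow] at hxe
        exact (QuotientGroup.eq_one_iff _).mp hxe
      have h2 : x ^ e ∈ (upperPSeries p A m).1 := h h1
      rw [← map_pow]
      exact (QuotientGroup.eq_one_iff _).mpr h2
    rw [Cfsg.Agent.Lib.Helper1.upperPSeries_succ_even p A m hm]
    intro x hx
    exact hWle (hW ▸ ⟨x, hx, rfl⟩)
  · have hn : ¬ Even n := fun h' => hm (hpar.mpr h')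
    have hWle : W ≤ pCore p (A ⧸ (upperPSeries p A m).1) := by
      apply plen_le_pCore_of_pow p W hWn
      intro w hw
      rw [hW] at hw
      obtain ⟨x, hx, rfl⟩ := hw
      have hx1 : f x ∈ (upperPSeries p B (n + 1)).1 := hx
      rw [Cfsg.Agent.Lib.Helper1.upperPSeries_succ_odd p B n hn] at hx1
      have hx' : (QuotientGroup.mk' (upperPSeries p B n).1) (f x) ∈
          pCore p (B ⧸ (upperPSeries p B n).1) := hx1
      obtain ⟨k, hxe⟩ := plen_mem_pCore_pow p hx'
      refine ⟨k, ?_⟩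
      have h1 : f (x ^ (p ^ k)) ∈ (upperPSeries p B n).1 := by
        rw [← map_pow, ← map_pow] at hxe
        exact (QuotientGroup.eq_one_iff _).mp hxe
      have h2 : x ^ (p ^ k) ∈ (upperPSeries p A m).1 := h h1
      rw [← map_pow]
      exact (QuotientGroup.eq_one_iff _).mpr h2
    rw [Cfsg.Agent.Lib.Helper1.upperPSeries_succ_odd p A m hm]
    intro x hx
    exact hWle (hW ▸ ⟨x, hx, rfl⟩)

theorem plen_shift_rev {A : Type u} {B : Type v} [Group A] [Group B] [Finite A] [Finite B]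
    (p : ℕ) [Fact p.Prime] (f : A →* B) (m n : ℕ) (hpar : Even m ↔ Even n)
    (h : (upperPSeries p B n).1.comap f ≤ (upperPSeries p A m).1) (k : ℕ) :
    (upperPSeries p B (n + k)).1.comap f ≤ (upperPSeries p A (m + k)).1 := by
  induction k with
  | zero => exact h
  | succ k ih =>
    have hpar' : Even (m + k) ↔ Even (n + k) := by
      rw [Nat.even_add, Nat.even_add, hpar]
    exact plen_step_rev p f (m + k) (n + k) hpar' ih

theorem plen_shift_fwd {A : Type u} {B : Type v} [Group A] [Group B] [Finite A] [Finite B]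
    (p : ℕ) [Fact p.Prime] (f : A →* B) (m n : ℕ) (hpar : Even m ↔ Even n)
    (hnorm : ∀ j, ((upperPSeries p A j).1.map f).Normal)
    (h : (upperPSeries p A m).1.map f ≤ (upperPSeries p B n).1) (k : ℕ) :
    (upperPSeries p A (m + k)).1.map f ≤ (upperPSeries p B (n + k)).1 := by
  induction k with
  | zero => exact h
  | succ k ih =>
    have hpar' : Even (m + k) ↔ Even (n + k) := by
      rw [Nat.even_add, Nat.even_add, hpar]
    exact plen_step_fwd p f (m + k) (n + k) hpar' (hnorm _) ih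

/-- `p`-length bounds pass to subgroups (any injective homomorphism). -/
theorem plen_subgroup {A : Type u} {B : Type v} [Group A] [Group B] [Finite A] [Finite B]
    (p : ℕ) [Fact p.Prime] (f : A →* B) (hf : Function.Injective f) (k : ℕ)
    (h : PLengthLE p k B) : PLengthLE p k A := by
  unfold PLengthLE at *
  have h1 := plen_shift_rev p f 0 0 Iff.rfl (by
    rw [Cfsg.Agent.Lib.Helper1.upperPSeries_zero, Cfsg.Agent.Lib.Helper1.upperPSeries_zero]
    intro x hx
    have hx1 : f x = 1 := Subgroup.mem_bot.mp hx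
    rw [Subgroup.mem_bot]
    exact hf (hx1.trans (map_one f).symm)) (2 * k + 1)
  rw [Nat.zero_add, h, Subgroup.comap_top] at h1
  exact top_le_iff.mp h1

theorem plen_upper_le_succ {G : Type u} [Group G] (p : ℕ) (n : ℕ) :
    (upperPSeries p G n).1 ≤ (upperPSeries p G (n + 1)).1 := by
  intro x hx
  have h1 : (QuotientGroup.mk' (upperPSeries p G n).1) x = 1 :=
    (QuotientGroup.eq_one_iff x).mpr hx
  by_cases hn : Even n
  · rw [Cfsg.Agent.Lib.Helper1.upperPSeries_succ_even p G n hn]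
    show (QuotientGroup.mk' (upperPSeries p G n).1) x ∈
      pPrimeCore p (G ⧸ (upperPSeries p G n).1)
    rw [h1]; exact Subgroup.one_mem _
  · rw [Cfsg.Agent.Lib.Helper1.upperPSeries_succ_odd p G n hn]
    show (QuotientGroup.mk' (upperPSeries p G n).1) x ∈
      pCore p (G ⧸ (upperPSeries p G n).1)
    rw [h1]; exact Subgroup.one_mem _

theorem plen_zero_of_coprime {G : Type u} [Group G] [Finite G] (p : ℕ)
    (h : (Nat.card G).Coprime p) : PLengthLE p 0 G := by
  unfold PLengthLE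
  rw [show 2 * 0 + 1 = 0 + 1 from rfl,
    Cfsg.Agent.Lib.Helper1.upperPSeries_succ_even p G 0 ⟨0, rfl⟩]
  have h1 : pPrimeCore p (G ⧸ (upperPSeries p G 0).1) = ⊤ := by
    apply top_le_iff.mp
    apply Cfsg.Agent.Lib.Helper7.le_pPrimeCore (inferInstance : (⊤ : Subgroup _).Normal)
    rw [Subgroup.card_top]
    exact Nat.Coprime.coprime_dvd_left (Subgroup.card_dvd_of_surjective (QuotientGroup.mk' _)
      (QuotientGroup.mk'_surjective _)) h
  rw [h1, Subgroup.comap_top]

theorem plen_one_of_pgroup {G : Type u} [Group G] [Finite G] (p : ℕ) [Fact p.Prime]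
    (h : IsPGroup p G) : PLengthLE p 1 G := by
  unfold PLengthLE
  have h2 : (upperPSeries p G 2).1 = ⊤ := by
    rw [Cfsg.Agent.Lib.Helper1.upperPSeries_succ_odd p G 1 (by decide)]
    have h1 : pCore p (G ⧸ (upperPSeries p G 1).1) = ⊤ := by
      apply top_le_iff.mp
      apply Cfsg.Agent.Lib.Helper7.le_pCore (inferInstance : (⊤ : Subgroup _).Normal)
      exact IsPGroup.to_subgroup (h.to_quotient _) ⊤
    rw [h1, Subgroup.comap_top]
  have h3 := plen_upper_le_succ (G := G) p 2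
  rw [h2] at h3
  exact top_le_iff.mp h3

/-- Subadditivity of `p`-length along a normal subgroup. -/
theorem plen_ext {K : Type u} [Group K] [Finite K] (p : ℕ) [Fact p.Prime] (N : Subgroup K)
    [hN : N.Normal] (a b : ℕ) (h1 : PLengthLE p a N) (h2 : PLengthLE p b (K ⧸ N)) :
    PLengthLE p (a + b) K := by
  -- Step 1: the series of `N` lies in the series of `K`
  have hchar : ∀ j, ((upperPSeries p N j).1.map N.subtype).Normal := by
    intro j
    constructor
    rintro _ ⟨x, hx, rfl⟩ g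
    have h3 := plen_shift p (MulAut.conjNormal g : MulAut N).toMonoidHom
      (MulAut.conjNormal g : MulAut N).surjective 0 0 Iff.rfl (by
        rw [Cfsg.Agent.Lib.Helper1.upperPSeries_zero, Subgroup.map_bot]) j
    rw [Nat.zero_add] at h3
    have h4 : (MulAut.conjNormal g : MulAut N) x ∈ (upperPSeries p N j).1 :=
      h3 ⟨x, hx, rfl⟩
    refine ⟨_, h4, ?_⟩
    exact MulAut.conjNormal_apply g x
  have hstep1 := plen_shift_fwd p N.subtype 0 0 Iff.rfl hchar (by
    rw [Cfsg.Agent.Lib.Helper1.upperPSeries_zero, Subgroup.map_bot]; exact bot_le) (2 * a + 1)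
  rw [Nat.zero_add] at hstep1
  unfold PLengthLE at h1
  rw [h1, ← MonoidHom.range_eq_map, Subgroup.range_subtype] at hstep1
  -- Step 2
  obtain ⟨V, hV⟩ : ∃ V : Subgroup K, V = (upperPSeries p K (2 * a + 1)).1 := ⟨_, rfl⟩
  have hVn : V.Normal := by rw [hV]; infer_instance
  have hNV : N ≤ V := hV ▸ hstep1
  have h2' : PLengthLE p b (K ⧸ V) := by
    have hle : N ≤ V.comap (MonoidHom.id K) := by
      rw [Subgroup.comap_id]; exact hNV
    refine plen_quot p (QuotientGroup.map N V (MonoidHom.id K) hle) ?_ b h2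
    intro y
    obtain ⟨k, rfl⟩ := QuotientGroup.mk_surjective y
    exact ⟨QuotientGroup.mk k, rfl⟩
  -- Step 3
  have hO : pPrimeCore p (K ⧸ V) = ⊥ :=
    Cfsg.Agent.Lib.Helper1.pPrimeCore_quotient_eq_bot_of_eq_comap p
      (upperPSeries p K (2 * a)).1 V
      (by rw [hV]; exact Cfsg.Agent.Lib.Helper1.upperPSeries_succ_even p K (2 * a) ⟨a, by ring⟩)
  have hU1 := plen_upper_one_eq_bot p hO
  have hbase : (upperPSeries p (K ⧸ V) 1).1.comap (QuotientGroup.mk' V) ≤
      (upperPSeries p K (2 * a + 1)).1 := by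
    rw [hU1, MonoidHom.comap_bot, QuotientGroup.ker_mk', hV]
  have h3 := plen_shift_rev p (QuotientGroup.mk' V) (2 * a + 1) 1 (by
    constructor
    · intro h; exact absurd h (by rw [Nat.not_even_iff_odd]; exact ⟨a, rfl⟩)
    · intro h; exact absurd h (by decide)) hbase (2 * b)
  unfold PLengthLE at h2' ⊢
  have e1 : 1 + 2 * b = 2 * b + 1 := by ring
  have e2 : 2 * a + 1 + 2 * b = 2 * (a + b) + 1 := by ring
  rw [e1, h2', Subgroup.comap_top, e2] at h3
  exact top_le_iff.mp h3

end Cfsg.Agent.Lib.Helper3
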