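import Mathlib
import Cfsg.Agent.S0644

/-!
Regular `p`-groups (P. Hall): the `p^k`-power structure, built on the level-one machinery of
`Cfsg.Agent.S0644` (`Wk`, `D`, `E`, `F2`).
-/

namespace Cfsg.Agent.Lib.Helper3

open Cfsg
open scoped commutatorElement

variable {G : Type*} [Group G]

/-- If the elements of `q`-th power one in the derived subgroup of `⟨a, b⟩` are closed under
products and `⁅a, b⁆ ^ q = 1`, the whole derived subgroup of `⟨a, b⟩` has exponent dividing `q`. -/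
theorem regp_derived_exp_aux (q : ℕ) (a b : G)
    (hcl : ∀ z ∈ ⁅Subgroup.closure ({a, b} : Set G), Subgroup.closure ({a, b} : Set G)⁆,
      ∀ w ∈ ⁅Subgroup.closure ({a, b} : Set G), Subgroup.closure ({a, b} : Set G)⁆,
      z ^ q = 1 → w ^ q = 1 → (z * w) ^ q = 1)
    (hab : ⁅a, b⁆ ^ q = 1) :
    ∀ d ∈ ⁅Subgroup.closure ({a, b} : Set G), Subgroup.closure ({a, b} : Set G)⁆, d ^ q = 1 := by
  obtain ⟨T, hT⟩ : ∃ T : Subgroup G, ∀ z, z ∈ T ↔
      (z ∈ ⁅Subgroup.closure ({a, b} : Set G), Subgroup.closure ({a, b} : Set G)⁆ ∧ z ^ q = 1) :=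
    ⟨{ carrier := {z | z ∈ ⁅Subgroup.closure ({a, b} : Set G),
          Subgroup.closure ({a, b} : Set G)⁆ ∧ z ^ q = 1}
       mul_mem' := fun {z w} hz hw =>
        ⟨Subgroup.mul_mem _ hz.1 hw.1, hcl z hz.1 w hw.1 hz.2 hw.2⟩
       one_mem' := ⟨Subgroup.one_mem _, one_pow q⟩
       inv_mem' := fun {z} hz => ⟨Subgroup.inv_mem _ hz.1, by rw [inv_pow, hz.2, inv_one]⟩ },
      fun z => Iff.rfl⟩
  have hle := Cfsg.Agent.S0644.comm_closure_le T a b
    (fun g hg t ht => (hT _).mpr ⟨Cfsg.Agent.S0644.conj_mem_comm _ hg ((hT t).mp ht).1,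
      by rw [conj_pow, ((hT t).mp ht).2, mul_one, mul_inv_cancel]⟩)
    ((hT _).mpr ⟨Subgroup.commutator_mem_commutator (Subgroup.subset_closure (by simp))
      (Subgroup.subset_closure (by simp)), hab⟩)
  intro d hd
  exact ((hT d).mp (hle hd)).2

/-- In a regular `p`-group the elements of `p^k`-th power one of any subgroup are closed under
products (induction on the order of the subgroup). -/
theorem regp_omega_mul_aux {p : ℕ} [Fact p.Prime] [Finite G] (hG : IsPGroup p G)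
    (hW : Cfsg.Agent.S0644.Wk p G) (k : ℕ) :
    ∀ (n : ℕ) (H : Subgroup G), Nat.card H = n → ∀ x ∈ H, ∀ y ∈ H,
      x ^ p ^ k = 1 → y ^ p ^ k = 1 → (x * y) ^ p ^ k = 1 := by
  intro n
  induction n using Nat.strong_induction_on with
  | _ n ih =>
  intro H hn x hx y hy hxq hyq
  by_cases hc : x * y = y * x
  · rw [(show Commute x y from hc).mul_pow, hxq, hyq, one_mul]
  · obtain ⟨L, hL⟩ : ∃ L : Subgroup G, L = Subgroup.closure ({x, y} : Set G) := ⟨_, rfl⟩
    have hxL : x ∈ L := by rw [hL]; exact Subgroup.subset_closure (by simp)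
    have hyL : y ∈ L := by rw [hL]; exact Subgroup.subset_closure (by simp)
    have hLH : L ≤ H := by rw [hL]; exact Cfsg.Agent.S0644.closure_pair_le hx hy
    have hLp : IsPGroup p L := hG.to_subgroup L
    have hF2 := Cfsg.Agent.S0644.F2 L hLp hxL hyL hc x hxL
    have hcL : ⁅L, L⁆ ≤ L := Cfsg.Agent.S0644.comm_self_le L
    have hM_le : Subgroup.zpowers x ⊔ ⁅L, L⁆ ≤ L := sup_le ((Subgroup.zpowers_le).mpr hxL) hcL
    have hcardL : Nat.card L ≤ Nat.card H :=
      Nat.le_of_dvd Nat.card_pos (Subgroup.card_dvd_of_le hLH)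
    have hcardM : Nat.card ↥(Subgroup.zpowers x ⊔ ⁅L, L⁆) < n := by
      rw [← hn]
      exact lt_of_lt_of_le (Cfsg.Agent.S0644.card_lt_of_le_of_ne hM_le hF2) hcardL
    have hcardD : Nat.card ↥⁅L, L⁆ < n :=
      lt_of_le_of_lt (Nat.le_of_dvd Nat.card_pos (Subgroup.card_dvd_of_le le_sup_right)) hcardM
    have h1 : ⁅x, y⁆ ^ p ^ k = 1 := by
      have e : ⁅x, y⁆ = x * (y * x⁻¹ * y⁻¹) := by rw [commutatorElement_def]; group
      rw [e]
      refine ih _ hcardM _ rfl x (Subgroup.mem_sup_left (Subgroup.mem_zpowers x))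
        (y * x⁻¹ * y⁻¹) ?_ hxq ?_
      · have e2 : y * x⁻¹ * y⁻¹ = ⁅y, x⁻¹⁆ * x⁻¹ := by rw [commutatorElement_def]; group
        rw [e2]
        exact Subgroup.mul_mem _
          (Subgroup.mem_sup_right (Subgroup.commutator_mem_commutator hyL (L.inv_mem hxL)))
          (Subgroup.mem_sup_left (Subgroup.inv_mem _ (Subgroup.mem_zpowers x)))
      · rw [conj_pow, inv_pow, hxq, inv_one, mul_one, mul_inv_cancel]
    have h2 : ∀ d ∈ ⁅L, L⁆, d ^ p ^ k = 1 := by
      rw [hL]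
      apply regp_derived_exp_aux
      · intro z hz w hw hzq hwq
        rw [← hL] at hz hw
        exact ih _ hcardD _ rfl z hz w hw hzq hwq
      · exact h1
    obtain ⟨c, hc', hceq⟩ := Cfsg.Agent.S0644.D hG hW k x y
    rw [← hL] at hc'
    obtain ⟨d, hd, rfl⟩ := Cfsg.Agent.S0644.E hG hW k _ c hc'
    rw [hceq, hxq, hyq, one_mul, one_mul, h2 d hd]

/-- In a regular `p`-group the elements of `p^k`-th power one are closed under products. -/
theorem regp_omega_mul {p : ℕ} [Fact p.Prime] [Finite G] (hG : IsPGroup p G)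
    (hW : Cfsg.Agent.S0644.Wk p G) (k : ℕ) (x y : G) (hx : x ^ p ^ k = 1) (hy : y ^ p ^ k = 1) :
    (x * y) ^ p ^ k = 1 :=
  regp_omega_mul_aux hG hW k _ ⊤ rfl x (Subgroup.mem_top x) y (Subgroup.mem_top y) hx hy

/-- In a regular `p`-group, if `⁅a, b⁆` has `p^k`-th power one then so has every element of
the derived subgroup of `⟨a, b⟩`. -/
theorem regp_derived_exp {p : ℕ} [Fact p.Prime] [Finite G] (hG : IsPGroup p G)
    (hW : Cfsg.Agent.S0644.Wk p G) (k : ℕ) (a b : G) (hab : ⁅a, b⁆ ^ p ^ k = 1) :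
    ∀ d ∈ ⁅Subgroup.closure ({a, b} : Set G), Subgroup.closure ({a, b} : Set G)⁆,
      d ^ p ^ k = 1 :=
  regp_derived_exp_aux (p ^ k) a b
    (fun z _ w _ hz hw => regp_omega_mul hG hW k z w hz hw) hab

/-- In a regular `p`-group, `a ^ p^k = b ^ p^k` implies `(a⁻¹ b) ^ p^k = 1`. -/
theorem regp_pow_eq_aux {p : ℕ} [Fact p.Prime] [Finite G] (hG : IsPGroup p G)
    (hW : Cfsg.Agent.S0644.Wk p G) (k : ℕ) :
    ∀ (n : ℕ) (H : Subgroup G), Nat.card H = n → ∀ a ∈ H, ∀ b ∈ H,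
      a ^ p ^ k = b ^ p ^ k → (a⁻¹ * b) ^ p ^ k = 1 := by
  intro n
  induction n using Nat.strong_induction_on with
  | _ n ih =>
  intro H hn a ha b hb hab
  by_cases hc : a * b = b * a
  · have hc' : Commute a⁻¹ b := (show Commute a b from hc).inv_left
    rw [hc'.mul_pow, inv_pow, hab, inv_mul_cancel]
  · obtain ⟨L, hL⟩ : ∃ L : Subgroup G, L = Subgroup.closure ({a⁻¹, b} : Set G) := ⟨_, rfl⟩
    have haL' : a⁻¹ ∈ L := by rw [hL]; exact Subgroup.subset_closure (by simp)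
    have haL : a ∈ L := by simpa using L.inv_mem haL'
    have hbL : b ∈ L := by rw [hL]; exact Subgroup.subset_closure (by simp)
    have hLH : L ≤ H := by
      rw [hL]; exact Cfsg.Agent.S0644.closure_pair_le (H.inv_mem ha) hb
    have hLp : IsPGroup p L := hG.to_subgroup L
    have hc2 : a⁻¹ * b ≠ b * a⁻¹ := by
      intro h
      apply hc
      calc a * b = a * (b * a⁻¹) * a := by group
        _ = a * (a⁻¹ * b) * a := by rw [h]
        _ = b * a := by group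
    have hF2 := Cfsg.Agent.S0644.F2 L hLp haL' hbL hc2 a haL
    have hcL : ⁅L, L⁆ ≤ L := Cfsg.Agent.S0644.comm_self_le L
    have hM_le : Subgroup.zpowers a ⊔ ⁅L, L⁆ ≤ L := sup_le ((Subgroup.zpowers_le).mpr haL) hcL
    have hcardL : Nat.card L ≤ Nat.card H :=
      Nat.le_of_dvd Nat.card_pos (Subgroup.card_dvd_of_le hLH)
    have hcardM : Nat.card ↥(Subgroup.zpowers a ⊔ ⁅L, L⁆) < n := by
      rw [← hn]
      exact lt_of_lt_of_le (Cfsg.Agent.S0644.card_lt_of_le_of_ne hM_le hF2) hcardL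
    have h1 : ⁅a⁻¹, b⁆ ^ p ^ k = 1 := by
      have e : ⁅a⁻¹, b⁆ = a⁻¹ * (b * a * b⁻¹) := by rw [commutatorElement_def]; group
      rw [e]
      refine ih _ hcardM _ rfl a (Subgroup.mem_sup_left (Subgroup.mem_zpowers a))
        (b * a * b⁻¹) ?_ ?_
      · have e2 : b * a * b⁻¹ = ⁅b, a⁆ * a := by rw [commutatorElement_def]; group
        rw [e2]
        exact Subgroup.mul_mem _
          (Subgroup.mem_sup_right (Subgroup.commutator_mem_commutator hbL haL))
          (Subgroup.mem_sup_left (Subgroup.mem_zpowers a))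
      · rw [conj_pow, hab]; group
    have h2 : ∀ d ∈ ⁅L, L⁆, d ^ p ^ k = 1 := by
      rw [hL]
      exact regp_derived_exp hG hW k a⁻¹ b h1
    obtain ⟨c, hc', hceq⟩ := Cfsg.Agent.S0644.D hG hW k a⁻¹ b
    rw [← hL] at hc'
    obtain ⟨d, hd, rfl⟩ := Cfsg.Agent.S0644.E hG hW k _ c hc'
    rw [hceq, h2 d hd, mul_one, inv_pow, hab, inv_mul_cancel]

/-- In a regular `p`-group, `a ^ p^k = b ^ p^k` implies `(a⁻¹ b) ^ p^k = 1`. -/
theorem regp_pow_eq {p : ℕ} [Fact p.Prime] [Finite G] (hG : IsPGroup p G)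
    (hW : Cfsg.Agent.S0644.Wk p G) (k : ℕ) (a b : G) (hab : a ^ p ^ k = b ^ p ^ k) :
    (a⁻¹ * b) ^ p ^ k = 1 :=
  regp_pow_eq_aux hG hW k _ ⊤ rfl a (Subgroup.mem_top a) b (Subgroup.mem_top b) hab

/-- In a regular `p`-group, `(a⁻¹ b) ^ p^k = 1` implies `a ^ p^k = b ^ p^k`. -/
theorem regp_pow_eq_conv {p : ℕ} [Fact p.Prime] [Finite G] (hG : IsPGroup p G)
    (hW : Cfsg.Agent.S0644.Wk p G) (k : ℕ) (a b : G) (hab : (a⁻¹ * b) ^ p ^ k = 1) :
    a ^ p ^ k = b ^ p ^ k := by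
  obtain ⟨u, hu⟩ : ∃ u : G, u = a⁻¹ * b := ⟨_, rfl⟩
  rw [← hu] at hab
  have hb : b = a * u := by rw [hu]; group
  have h1 : ⁅a, u⁆ ^ p ^ k = 1 := by
    have e : ⁅a, u⁆ = (a * u * a⁻¹) * u⁻¹ := by rw [commutatorElement_def]
    rw [e]
    apply regp_omega_mul hG hW k
    · rw [conj_pow, hab, mul_one, mul_inv_cancel]
    · rw [inv_pow, hab, inv_one]
  have h2 := regp_derived_exp hG hW k a u h1
  obtain ⟨c, hc', hceq⟩ := Cfsg.Agent.S0644.D hG hW k a u
  obtain ⟨d, hd, rfl⟩ := Cfsg.Agent.S0644.E hG hW k _ c hc'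
  rw [hb, hceq, hab, h2 d hd, mul_one, mul_one]

/-- The level-one regularity used by `Cfsg.Agent.S0644`. -/
theorem regp_wk {p : ℕ} (hG : Cfsg.IsRegularPGroup p G) : Cfsg.Agent.S0644.Wk p G := fun a b => by
  obtain ⟨c, hc, h⟩ := hG.2 a b 1
  exact ⟨c, hc, by simpa using h⟩

end Cfsg.Agent.Lib.Helper3
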